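import Cfsg.Agent.H888.C6.FTHom

/-!
# Independent (skew-)symmetric matrices; independence of simultaneous eigenvectors (helper682)
-/

set_option autoImplicit false
set_option linter.style.haveILetI false

namespace Cfsg.Agent.H682.C6

open Cfsg.Agent.H888.C6 Module Module.End Matrix

/-- simultaneous eigenvectors with distinct weights are linearly independent -/
theorem linInd_wt {K V ι J : Type*} [Field K] [AddCommGroup V] [Module K V] [FiniteDimensional K V] (f : ι → End K V)
    (hf : ∀ i j, Commute (f i) (f j)) (χ : J → ι → K) (hχ : Function.Injective χ) (v : J → V) (hv0 : ∀ j, v j ≠ 0)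
    (hv : ∀ j i, f i (v j) = χ j i • v j) : LinearIndependent K v := by
  have hind := independent_iInf_maxGenEigenspace_of_forall_mapsTo f
    (fun i j φ => mapsTo_maxGenEigenspace_of_comm (hf j i) φ)
  have hind' : iSupIndep fun j : J => ⨅ i, (f i).maxGenEigenspace (χ j i) := hind.comp hχ
  refine hind'.linearIndependent _ (fun j => ?_) hv0
  rw [Submodule.mem_iInf]
  intro i
  rw [mem_maxGenEigenspace]
  exact ⟨1, by rw [pow_one, LinearMap.sub_apply, hv j i, LinearMap.smul_apply, End.one_apply, sub_self]⟩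

section

variable {κ J K : Type*} [Fintype κ] [DecidableEq κ] [Fintype J] [Field K] {B : Matrix κ κ K} (hdet : IsUnit B.det)
  (v : J → Matrix κ κ K) (hv : LinearIndependent K v)

theorem exists_rep : ∃ r : Sym2 κ → κ × κ, ∀ i j, r s(i, j) = (i, j) ∨ r s(i, j) = (j, i) := by
  have h : ∀ z : Sym2 κ, ∃ p : κ × κ, s(p.1, p.2) = z := by
    intro z
    induction z using Sym2.ind with
    | _ i j => exact ⟨(i, j), rfl⟩
  choose r hr using h
  refine ⟨r, fun i j => ?_⟩
  have h1 := hr s(i, j)
  rw [Sym2.eq_iff] at h1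
  rcases h1 with ⟨h1, h2⟩ | ⟨h1, h2⟩
  · exact Or.inl (Prod.ext h1 h2)
  · exact Or.inr (Prod.ext h1 h2)

include hdet hv

theorem linInd_mul : LinearIndependent K (fun j => B * v j) := by
  have h1 : LinearMap.ker (LinearMap.mulLeft K B : Matrix κ κ K →ₗ[K] Matrix κ κ K) = ⊥ := by
    rw [LinearMap.ker_eq_bot']
    intro X hX
    have h2 : B * X = 0 := hX
    calc X = B⁻¹ * (B * X) := by rw [← mul_assoc, Matrix.nonsing_inv_mul _ hdet, one_mul]
      _ = 0 := by rw [h2, mul_zero]
  exact hv.map' _ h1

theorem card_skew (h2 : (2 : K) ≠ 0) (hs : ∀ j, (B * v j)ᵀ = -(B * v j)) :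
    Fintype.card J ≤ (Fintype.card κ).choose 2 := by
  classical
  obtain ⟨r, hr⟩ := exists_rep (κ := κ)
  let T : Submodule K (Matrix κ κ K) :=
    { carrier := {X | Xᵀ = -X}
      add_mem' := fun {X Y} hX hY => by
        change (X + Y)ᵀ = -(X + Y)
        have hX' : Xᵀ = -X := hX
        have hY' : Yᵀ = -Y := hY
        rw [Matrix.transpose_add, hX', hY', neg_add]
      zero_mem' := by change (0 : Matrix κ κ K)ᵀ = -0; rw [Matrix.transpose_zero, neg_zero]
      smul_mem' := fun c X hX => by
        change (c • X)ᵀ = -(c • X)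
        have hX' : Xᵀ = -X := hX
        rw [Matrix.transpose_smul, hX', smul_neg] }
  let ψ : Matrix κ κ K →ₗ[K] ({z : Sym2 κ // ¬ z.IsDiag} → K) :=
    { toFun := fun X z => X (r z.1).1 (r z.1).2
      map_add' := fun X Y => rfl
      map_smul' := fun c X => rfl }
  have hli := linInd_mul hdet v hv
  have h3 : LinearIndependent K (ψ ∘ fun j => B * v j) := by
    apply hli.map
    rw [disjoint_iff, eq_bot_iff]
    intro X hX
    rw [Submodule.mem_inf] at hX
    have hXT : X ∈ T := by
      refine (Submodule.span_le.2 ?_) hX.1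
      rintro _ ⟨j, rfl⟩
      exact hs j
    have hXT' : Xᵀ = -X := hXT
    have h4 : ∀ i j, X j i = -X i j := fun i j => congrFun (congrFun hXT' i) j
    have h5 : ψ X = 0 := LinearMap.mem_ker.1 hX.2
    rw [Submodule.mem_bot]
    ext i j
    by_cases hij : i = j
    · subst hij
      have h6 := h4 i i
      have h7 : (2 : K) * X i i = 0 := by linear_combination h6
      exact (mul_eq_zero.1 h7).resolve_left h2
    · have h6 : X (r s(i, j)).1 (r s(i, j)).2 = 0 := congrFun h5 ⟨s(i, j), by rw [Sym2.mk_isDiag_iff]; exact hij⟩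
      rcases hr i j with h7 | h7
      · rw [h7] at h6; exact h6
      · rw [h7] at h6
        have h8 : X j i = 0 := h6
        rw [h4 j i, h8, neg_zero]
        rfl
  have h4 := h3.fintype_card_le_finrank
  rw [Module.finrank_fintype_fun_eq_card, Sym2.card_subtype_not_diag] at h4
  exact h4

theorem card_symm (hs : ∀ j, (B * v j)ᵀ = B * v j) :
    Fintype.card J ≤ (Fintype.card κ + 1).choose 2 := by
  classical
  obtain ⟨r, hr⟩ := exists_rep (κ := κ)
  let T : Submodule K (Matrix κ κ K) :=
    { carrier := {X | Xᵀ = X}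
      add_mem' := fun {X Y} hX hY => by
        change (X + Y)ᵀ = (X + Y)
        have hX' : Xᵀ = X := hX
        have hY' : Yᵀ = Y := hY
        rw [Matrix.transpose_add, hX', hY']
      zero_mem' := by change (0 : Matrix κ κ K)ᵀ = 0; rw [Matrix.transpose_zero]
      smul_mem' := fun c X hX => by
        change (c • X)ᵀ = (c • X)
        have hX' : Xᵀ = X := hX
        rw [Matrix.transpose_smul, hX'] }
  let ψ : Matrix κ κ K →ₗ[K] (Sym2 κ → K) :=
    { toFun := fun X z => X (r z).1 (r z).2
      map_add' := fun X Y => rfl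
      map_smul' := fun c X => rfl }
  have hli := linInd_mul hdet v hv
  have h3 : LinearIndependent K (ψ ∘ fun j => B * v j) := by
    apply hli.map
    rw [disjoint_iff, eq_bot_iff]
    intro X hX
    rw [Submodule.mem_inf] at hX
    have hXT : X ∈ T := by
      refine (Submodule.span_le.2 ?_) hX.1
      rintro _ ⟨j, rfl⟩
      exact hs j
    have hXT' : Xᵀ = X := hXT
    have h4 : ∀ i j, X j i = X i j := fun i j => congrFun (congrFun hXT' i) j
    have h5 : ψ X = 0 := LinearMap.mem_ker.1 hX.2
    rw [Submodule.mem_bot]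
    ext i j
    have h6 : X (r s(i, j)).1 (r s(i, j)).2 = 0 := congrFun h5 s(i, j)
    rcases hr i j with h7 | h7
    · rw [h7] at h6; exact h6
    · rw [h7] at h6
      have h8 : X j i = 0 := h6
      rw [h4 j i, h8]
      rfl
  have h4 := h3.fintype_card_le_finrank
  rw [Module.finrank_fintype_fun_eq_card, Sym2.card] at h4
  exact h4

end

end Cfsg.Agent.H682.C6
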